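import Mathlib
import Cfsg.Prelude.Def_Characters
import Cfsg.Prelude.Def_Blocks
import Cfsg.Agent.Lib.Helper3.CharCore
import Cfsg.Agent.Lib.Helper15.LinChar
import Cfsg.Agent.Lib.Helper75.GaloisChar
import Cfsg.Agent.Lib.Helper75.CharInd
import Cfsg.Agent.Lib.Helper75.Clifford
import Cfsg.Agent.Lib.Helper80.CharKer

set_option autoImplicit false
set_option linter.unusedSectionVars false
set_option linter.style.haveILetI false

namespace Cfsg.Agent.Lib.Helper81

open scoped ComplexConjugate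

universe u

/-- the twist of a function by the power map `g ↦ g ^ k` -/
def pw {G : Type u} [Group G] (k : ℕ) (φ : G → ℂ) : G → ℂ := fun g => φ (g ^ k)

theorem pw_apply {G : Type u} [Group G] (k : ℕ) (φ : G → ℂ) (g : G) : pw k φ g = φ (g ^ k) := rfl

theorem pw_one {G : Type u} [Group G] (φ : G → ℂ) : pw 1 φ = φ := by
  funext g
  rw [pw_apply, pow_one]

theorem pw_pw {G : Type u} [Group G] (k j : ℕ) (φ : G → ℂ) : pw k (pw j φ) = pw (k * j) φ := by
  funext g
  rw [pw_apply, pw_apply, pw_apply, pow_mul]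

theorem pw_congr {G : Type u} [Group G] [Finite G] {k j : ℕ} (h : k ≡ j [MOD Nat.card G])
    (φ : G → ℂ) : pw k φ = pw j φ := by
  funext g
  rw [pw_apply, pw_apply]
  congr 1
  rw [pow_eq_pow_iff_modEq]
  exact h.of_dvd (orderOf_dvd_natCard g)

/-- inverses modulo a prime power -/
theorem exists_inv_pow {p : ℕ} (hp : p.Prime) {k : ℕ} (hk : k.Coprime p) (a : ℕ) :
    ∃ k' : ℕ, k'.Coprime p ∧ k * k' ≡ 1 [MOD p ^ a] ∧ k' * k ≡ 1 [MOD p ^ a] := by
  rcases Nat.eq_zero_or_pos a with ha | ha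
  · subst ha
    refine ⟨1, Nat.coprime_one_left p, ?_, ?_⟩ <;> rw [pow_zero] <;> exact Nat.modEq_one
  · have h1 : 1 < p ^ a := Nat.one_lt_pow ha.ne' hp.one_lt
    obtain ⟨m, -, hm⟩ := Nat.exists_mul_mod_eq_one_of_coprime (Nat.Coprime.pow_right a hk) h1
    have hmod : k * m ≡ 1 [MOD p ^ a] := by
      unfold Nat.ModEq
      rw [hm, Nat.mod_eq_of_lt h1]
    refine ⟨m, ?_, hmod, by rw [mul_comm]; exact hmod⟩
    rw [Nat.coprime_comm, hp.coprime_iff_not_dvd]
    intro hdvd
    have h2 : p ∣ k * m := Dvd.dvd.mul_left hdvd k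
    have h3 : k * m ≡ 1 [MOD p] := hmod.of_dvd (dvd_pow_self p ha.ne')
    have h4 : (k * m) % p = 0 := Nat.mod_eq_zero_of_dvd h2
    unfold Nat.ModEq at h3
    rw [h4, Nat.mod_eq_of_lt hp.one_lt] at h3
    exact absurd h3 (by norm_num)

/-- the orbit of a function under the power twists prime to `p` -/
def orb {G : Type u} [Group G] (p : ℕ) (χ : G → ℂ) : Set (G → ℂ) :=
  {φ | ∃ k : ℕ, k.Coprime p ∧ φ = pw k χ}

theorem orb_finite {G : Type u} [Group G] [Finite G] (p : ℕ) (χ : G → ℂ) : (orb p χ).Finite := by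
  haveI : NeZero (Nat.card G) := ⟨Nat.card_pos.ne'⟩
  apply Set.Finite.subset (Set.finite_range (fun j : Fin (Nat.card G) => pw (j : ℕ) χ))
  rintro φ ⟨k, -, rfl⟩
  refine ⟨⟨k % Nat.card G, Nat.mod_lt _ Nat.card_pos⟩, ?_⟩
  exact pw_congr (Nat.mod_modEq k _) χ

/-- the power-twist orbit is no larger than the degree of the field of values -/
theorem orb_ncard_le_finrank {G : Type u} [Group G] [Finite G] {p a : ℕ}
    (hG : Nat.card G = p ^ a) {χ : G → ℂ} (hχ : Cfsg.IsCharacter G χ)
    (hfin : 0 < Module.finrank ℚ (IntermediateField.adjoin ℚ (Set.range χ))) :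
    (orb p χ).ncard ≤ Module.finrank ℚ (IntermediateField.adjoin ℚ (Set.range χ)) := by
  classical
  haveI : FiniteDimensional ℚ (IntermediateField.adjoin ℚ (Set.range χ)) :=
    Module.finite_of_finrank_pos hfin
  have hcard : Nat.card ((IntermediateField.adjoin ℚ (Set.range χ)) →ₐ[ℚ] ℂ) =
      Module.finrank ℚ (IntermediateField.adjoin ℚ (Set.range χ)) :=
    AlgHom.natCard_of_splits ℚ _ ℂ (fun _ => IsAlgClosed.splits _)
  have hmem : ∀ g : G, χ g ∈ IntermediateField.adjoin ℚ (Set.range χ) := fun g =>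
    IntermediateField.subset_adjoin ℚ _ ⟨g, rfl⟩
  let ev : ((IntermediateField.adjoin ℚ (Set.range χ)) →ₐ[ℚ] ℂ) → (G → ℂ) :=
    fun τ g => τ ⟨χ g, hmem g⟩
  have hsub : orb p χ ⊆ Set.range ev := by
    rintro φ ⟨k, hk, rfl⟩
    have hk' : Nat.Coprime k (Nat.card G) := by
      rw [hG]
      exact Nat.Coprime.pow_right a hk
    obtain ⟨σ, hσ⟩ := Cfsg.Agent.Lib.Helper75.exists_galois_pow (G := G) k hk'
    refine ⟨((σ : ℂ →+* ℂ).comp
      (algebraMap (IntermediateField.adjoin ℚ (Set.range χ)) ℂ)).toRatAlgHom, ?_⟩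
    funext g
    show σ (χ g) = pw k χ g
    rw [hσ χ hχ g, pw_apply]
  haveI : Finite ((IntermediateField.adjoin ℚ (Set.range χ)) →ₐ[ℚ] ℂ) :=
    Nat.finite_of_card_ne_zero (by rw [hcard]; exact hfin.ne')
  calc (orb p χ).ncard ≤ (Set.range ev).ncard := Set.ncard_le_ncard hsub (Set.finite_range ev)
    _ = (ev '' Set.univ).ncard := by rw [Set.image_univ]
    _ ≤ (Set.univ : Set ((IntermediateField.adjoin ℚ (Set.range χ)) →ₐ[ℚ] ℂ)).ncard :=
        Set.ncard_image_le (Set.finite_univ)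
    _ = Module.finrank ℚ (IntermediateField.adjoin ℚ (Set.range χ)) := by
        rw [Set.ncard_univ, hcard]

/-- inflation does not decrease the power-twist orbit -/
theorem orb_ncard_inflate {G : Type u} [Group G] [Finite G] (N : Subgroup G) [N.Normal] (p : ℕ)
    (ψ : G ⧸ N → ℂ) :
    (orb p ψ).ncard ≤ (orb p (fun g : G => ψ (g : G ⧸ N))).ncard := by
  have hinj : Function.Injective (fun (φ : G ⧸ N → ℂ) (g : G) => φ (g : G ⧸ N)) := by
    intro φ₁ φ₂ h
    funext q
    induction q using QuotientGroup.induction_on with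
    | H g => exact congrFun h g
  rw [← Set.ncard_image_of_injective (orb p ψ) hinj]
  apply Set.ncard_le_ncard _ (orb_finite p _)
  rintro _ ⟨φ, ⟨k, hk, rfl⟩, rfl⟩
  exact ⟨k, hk, rfl⟩

/-- a faithful linear character of a group of order `p ^ a` has at least `φ(p ^ a)` power
twists -/
theorem totient_le_orb_ncard {G : Type u} [Group G] [Finite G] {p a : ℕ} (hp : p.Prime)
    (hG : Nat.card G = p ^ a) (ha : 0 < a) {χ : G → ℂ} (hχ : Cfsg.IsCharacter G χ)
    (h1 : χ 1 = 1) (hfaith : ∀ g : G, χ g = χ 1 → g = 1) :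
    (p - 1) * p ^ (a - 1) ≤ (orb p χ).ncard := by
  classical
  let lam := Cfsg.Agent.Lib.Helper15.linCharHom hχ h1
  have hlam : ∀ g : G, ((lam g : ℂˣ) : ℂ) = χ g := fun g =>
    Cfsg.Agent.Lib.Helper15.linCharHom_apply hχ h1 g
  have hinj : Function.Injective lam := by
    rw [injective_iff_map_eq_one]
    intro g hg
    apply hfaith
    rw [h1, ← hlam g, hg, Units.val_one]
  have hinj' : Function.Injective ((Units.coeHom ℂ).comp lam) := by
    intro x y hxy
    apply hinj
    exact Units.ext hxy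
  haveI : IsCyclic G := isCyclic_of_subgroup_isDomain ((Units.coeHom ℂ).comp lam) hinj'
  obtain ⟨g, hg⟩ := IsCyclic.exists_generator (α := G)
  have hord : orderOf g = p ^ a := by
    rw [← hG]
    exact orderOf_eq_card_of_forall_mem_zpowers hg
  have hχinj : ∀ x y : G, χ x = χ y → x = y := by
    intro x y hxy
    apply hinj
    apply Units.ext
    rw [hlam, hlam, hxy]
  have key : Set.InjOn (fun k : ℕ => pw k χ)
      ((Finset.range (p ^ a)).filter (fun k => (p ^ a).Coprime k) : Finset ℕ) := by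
    intro k hk j hj hkj
    rw [Finset.mem_coe, Finset.mem_filter, Finset.mem_range] at hk hj
    have h2 := congrFun hkj g
    simp only [pw_apply] at h2
    have h3 := hχinj _ _ h2
    rw [pow_eq_pow_iff_modEq, hord] at h3
    unfold Nat.ModEq at h3
    rwa [Nat.mod_eq_of_lt hk.1, Nat.mod_eq_of_lt hj.1] at h3
  have hcard : ((Finset.range (p ^ a)).filter (fun k => (p ^ a).Coprime k)).card =
      p ^ (a - 1) * (p - 1) := by
    rw [← Nat.totient_eq_card_coprime, Nat.totient_prime_pow hp ha]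
  have hsub : (((Finset.range (p ^ a)).filter (fun k => (p ^ a).Coprime k)).image
      (fun k : ℕ => pw k χ) : Set (G → ℂ)) ⊆ orb p χ := by
    intro φ hφ
    rw [Finset.mem_coe, Finset.mem_image] at hφ
    obtain ⟨k, hk, rfl⟩ := hφ
    rw [Finset.mem_filter] at hk
    refine ⟨k, ?_, rfl⟩
    have := hk.2
    rw [Nat.coprime_comm] at this
    exact Nat.Coprime.coprime_dvd_right (dvd_pow_self p ha.ne') this
  have h4 := Set.ncard_le_ncard hsub (orb_finite p χ)
  rw [Set.ncard_coe_finset, Finset.card_image_of_injOn key, hcard] at h4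
  rw [mul_comm]
  exact h4

end Cfsg.Agent.Lib.Helper81
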