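import Mathlib
import Cfsg.Agent.Lib.Helper81.PGrpField1
import Cfsg.Agent.Lib.Helper2.FrattiniP
import Cfsg.Agent.Lib.Helper3.Monomial
import Cfsg.Agent.Lib.Helper3.IndTrans

set_option autoImplicit false
set_option linter.unusedSectionVars false
set_option linter.style.haveILetI false

namespace Cfsg.Agent.Lib.Helper81

open scoped ComplexConjugate
open Cfsg.Agent.Lib.Helper3 (isCharacter_of_irr isClassFunction_of_isCharacter)

universe u

theorem classInner_pw {G : Type u} [Group G] [Fintype G] {k : ℕ} (hk : (Nat.card G).Coprime k)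
    (α β : G → ℂ) : Cfsg.classInner (pw k α) (pw k β) = Cfsg.classInner α β := by
  unfold Cfsg.classInner
  congr 1
  exact Fintype.sum_equiv (powCoprime hk) _ _ (fun g => rfl)

section

variable {P : Type u} [Group P] [Fintype P]

/-- a character of a normal subgroup whose induced function is irreducible is irreducible -/
theorem irr_of_ind_irr_normal (M : Subgroup P) [M.Normal] {ψ : M → ℂ}
    (hψ : Cfsg.IsCharacter M ψ) (hirr : Cfsg.IsIrrCharacter P (Cfsg.indFun M ψ)) :
    Cfsg.IsIrrCharacter M ψ := by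
  classical
  have : Fintype M := Fintype.ofFinite M
  have : Fintype (Cfsg.IrrCharacter M) := Fintype.ofFinite _
  have hχc := isCharacter_of_irr hirr
  have hχcf := isClassFunction_of_isCharacter hχc
  have h1 : Cfsg.classInner (Cfsg.indFun M ψ) (Cfsg.indFun M ψ) = 1 :=
    Helper80.classInner_self hirr
  have h2 : Cfsg.classInner ψ (fun m : M => Cfsg.indFun M ψ m) = 1 := by
    rw [← Helper75.frobenius_reciprocity M ψ hχcf]
    exact h1
  have h2' : Cfsg.classInner (fun m : M => Cfsg.indFun M ψ m) ψ = 1 := by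
    rw [Helper75.classInner_conj_symm, h2, map_one]
  have hn : ∀ x : P, ∃ n : ℕ, Cfsg.classInner (Helper75.conjChar M ψ x) ψ = n := fun x =>
    Helper75.classInner_char_nat (Helper75.isCharacter_conjChar M hψ x) hψ
  choose n hn using hn
  obtain ⟨n0, hn0⟩ := Helper75.classInner_char_nat hψ hψ
  have hMne : (Nat.card M : ℂ) ≠ 0 := by exact_mod_cast (Nat.card_pos (α := M)).ne'
  rw [Helper75.indFun_res M ψ, Helper75.classInner_smul_left, Helper75.classInner_sum_left] at h2'
  simp only [hn] at h2'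
  have h3 : (∑ x : P, n x) = Nat.card M := by
    have h4 : ((∑ x : P, n x : ℕ) : ℂ) = (Nat.card M : ℂ) := by
      push_cast
      field_simp at h2'
      exact h2'
    exact_mod_cast h4
  have h5 : ∀ x ∈ Finset.univ.filter (fun x : P => x ∈ M), n x = n0 := by
    intro x hx
    rw [Finset.mem_filter] at hx
    have h6 := hn x
    rw [Helper75.conjChar_of_mem M (isClassFunction_of_isCharacter hψ) hx.2, hn0] at h6
    exact_mod_cast h6.symm
  have h6 : Nat.card M * n0 ≤ Nat.card M := by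
    calc Nat.card M * n0 = ∑ x ∈ Finset.univ.filter (fun x : P => x ∈ M), n0 := by
          rw [Finset.sum_const, smul_eq_mul]
          congr 1
          rw [Nat.card_eq_fintype_card, Fintype.card_subtype]
      _ = ∑ x ∈ Finset.univ.filter (fun x : P => x ∈ M), n x :=
          (Finset.sum_congr rfl h5).symm
      _ ≤ ∑ x : P, n x :=
          Finset.sum_le_sum_of_subset (Finset.filter_subset _ _)
      _ = Nat.card M := h3
  have hn0le : n0 ≤ 1 := by
    have hpos : 0 < Nat.card M := Nat.card_pos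
    nlinarith
  have hn0ne : n0 ≠ 0 := by
    intro h0
    have h7 : Cfsg.classInner ψ ψ = 0 := by rw [hn0, h0]; simp
    unfold Cfsg.classInner at h7
    have h8 : ∑ g : M, ψ g * conj (ψ g) = 0 := by
      rcases mul_eq_zero.mp h7 with h | h
      · exact absurd h (inv_ne_zero hMne)
      · exact h
    have h9 : ∑ g : M, Complex.normSq (ψ g) = 0 := by
      have : ((∑ g : M, Complex.normSq (ψ g) : ℝ) : ℂ) = 0 := by
        rw [Complex.ofReal_sum, ← h8]
        refine Finset.sum_congr rfl (fun g _ => ?_)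
        rw [Complex.mul_conj]
      exact_mod_cast this
    have h10 := (Finset.sum_eq_zero_iff_of_nonneg
      (fun g _ => Complex.normSq_nonneg (ψ g))).mp h9 1 (Finset.mem_univ _)
    have h11 : ψ 1 = 0 := Complex.normSq_eq_zero.mp h10
    exact Helper80.char_one_ne_zero hirr (by rw [Helper75.indFun_one, h11, mul_zero])
  have hn01 : n0 = 1 := by omega
  apply Helper75.isIrrCharacter_of_classInner_self hψ
  rw [hn0, hn01, Nat.cast_one]

/-- a nonlinear irreducible character of a `p`-group is induced from a normal subgroup of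
index `p` -/
theorem exists_maximal_ind {p : ℕ} (hp : p.Prime) (hP : IsPGroup p P) {χ : P → ℂ}
    (hχ : Cfsg.IsIrrCharacter P χ) (hnl : χ 1 ≠ 1) :
    ∃ (M : Subgroup P) (_ : M.Normal) (ψ : M → ℂ), M.index = p ∧ Cfsg.IsIrrCharacter M ψ ∧
      χ = Cfsg.indFun M ψ := by
  classical
  haveI : Fact p.Prime := ⟨hp⟩
  haveI : Group.IsNilpotent P := hP.isNilpotent
  obtain ⟨H, lam, hlam⟩ := Helper3.nilpotent_monomial_aux (Nat.card P) P rfl χ hχ
  have hHne : H ≠ ⊤ := by
    intro htop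
    subst htop
    apply hnl
    rw [hlam, Helper75.indFun_one, Subgroup.index_top]
    simp
  obtain ⟨M, hM, hHM⟩ := (eq_top_or_exists_le_coatom H).resolve_left hHne
  haveI hMn : M.Normal := Helper2.coatom_normal hP hM
  have hidx : M.index = p := Helper2.coatom_index hP hM
  have : Fintype M := Fintype.ofFinite M
  have htrans := Helper3.indFun_trans H M hHM (fun h => (lam h : ℂ))
  have hψc : Cfsg.IsCharacter M (Cfsg.indFun (H.subgroupOf M)
      (fun x => ((lam ⟨((x : M) : P), Subgroup.mem_subgroupOf.mp x.2⟩ : ℂˣ) : ℂ))) := by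
    apply Helper75.isCharacter_indFun
    exact Helper15.isCharacter_of_hom (lam.comp (Subgroup.subgroupOfEquivOfLe hHM).toMonoidHom)
  refine ⟨M, hMn, _, hidx, irr_of_ind_irr_normal M hψc ?_, ?_⟩
  · rw [htrans, ← hlam]
    exact hχ
  · rw [htrans]
    exact hlam

/-- power twists commute with induction -/
theorem pw_indFun (M : Subgroup P) (θ : M → ℂ) {k : ℕ} (hk : k.Coprime (Nat.card P)) :
    pw k (Cfsg.indFun M θ) = Cfsg.indFun M (pw k θ) := by
  funext g
  rw [pw_apply]
  unfold Cfsg.indFun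
  congr 1
  refine Finset.sum_congr rfl (fun x _ => ?_)
  have hconj : x⁻¹ * g ^ k * x = (x⁻¹ * g * x) ^ k := by
    have := conj_pow (a := x⁻¹) (b := g) (i := k)
    rw [inv_inv] at this
    exact this.symm
  by_cases hy : x⁻¹ * g * x ∈ M
  · rw [Helper75.extendByZero_mem M _ hy, hconj, Helper75.extendByZero_mem M θ (M.pow_mem hy k)]
    rfl
  · have hy' : (x⁻¹ * g * x) ^ k ∉ M := by
      intro hmem
      apply hy
      obtain ⟨m, hm⟩ := exists_pow_eq_self_of_coprime (x := x⁻¹ * g * x)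
        (hk.coprime_dvd_right (orderOf_dvd_natCard _))
      rw [← hm]
      exact M.pow_mem hmem m
    rw [Helper75.extendByZero_not_mem M _ hy, hconj, Helper75.extendByZero_not_mem M θ hy']

theorem conjChar_pw (M : Subgroup P) [M.Normal] (k : ℕ) (θ : M → ℂ) (y : P) :
    Helper75.conjChar M (pw k θ) y = pw k (Helper75.conjChar M θ y) := by
  funext n
  unfold Helper75.conjChar
  rw [pw_apply, pw_apply, map_pow]

/-- a power twist fixing `χ = ψ^P` sends `ψ` to a conjugate -/
theorem exists_conj_eq_pw (M : Subgroup P) [M.Normal] {p a : ℕ} (hcard : Nat.card P = p ^ a)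
    {ψ : M → ℂ} (hψ : Cfsg.IsIrrCharacter M ψ) {χ : P → ℂ} (hχ : Cfsg.IsIrrCharacter P χ)
    (hind : χ = Cfsg.indFun M ψ) {k : ℕ} (hk : k.Coprime p) (hfix : pw k χ = χ) :
    ∃ y : P, Helper75.conjChar M ψ y = pw k ψ := by
  classical
  have : Fintype M := Fintype.ofFinite M
  have hχcf := isClassFunction_of_isCharacter (isCharacter_of_irr hχ)
  have hkM : (Nat.card M).Coprime k := by
    have h1 : k.Coprime (p ^ a) := Nat.Coprime.pow_right a hk
    rw [← hcard] at h1
    exact (h1.coprime_dvd_right (Subgroup.card_subgroup_dvd_card M)).symm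
  have hψk : Cfsg.IsIrrCharacter M (pw k ψ) := Helper75.isIrrCharacter_pow hψ k hkM.symm
  have h1 : Cfsg.classInner (fun n : M => χ n) ψ ≠ 0 := by
    have h2 : Cfsg.classInner ψ (fun m : M => χ m) = 1 := by
      rw [← Helper75.frobenius_reciprocity M ψ hχcf, ← hind]
      exact Helper80.classInner_self hχ
    rw [Helper75.classInner_conj_symm, h2, map_one]
    exact one_ne_zero
  have h2 : Cfsg.classInner (fun n : M => χ n) (pw k ψ) ≠ 0 := by
    have h3 : (fun n : M => χ n) = pw k (fun n : M => χ n) := by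
      funext n
      have := congrFun hfix (n : P)
      rw [pw_apply] at this
      rw [pw_apply, Subgroup.coe_pow, this]
    rw [h3, classInner_pw hkM]
    exact h1
  exact Helper75.clifford_conj M hχ hψ hψk h1 h2

/-- either all conjugates of `ψ` are power twists of `ψ`, or every power twist fixing `ψ^P`
fixes `ψ` -/
theorem conj_pw_dichotomy (M : Subgroup P) [M.Normal] {p a : ℕ} (hp : p.Prime)
    (hcard : Nat.card P = p ^ a) (hidx : M.index = p)
    {ψ : M → ℂ} (hψ : Cfsg.IsIrrCharacter M ψ) {χ : P → ℂ} (hχ : Cfsg.IsIrrCharacter P χ)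
    (hind : χ = Cfsg.indFun M ψ) :
    (∀ y : P, ∃ k : ℕ, k.Coprime p ∧ Helper75.conjChar M ψ y = pw k ψ) ∨
      (∀ k : ℕ, k.Coprime p → pw k χ = χ → pw k ψ = ψ) := by
  classical
  have hψcf := isClassFunction_of_isCharacter (isCharacter_of_irr hψ)
  have hmodP : ∀ {k j : ℕ}, k ≡ j [MOD p ^ a] → ∀ φ : P → ℂ, pw k φ = pw j φ := by
    intro k j h φ
    rw [← hcard] at h
    exact pw_congr h φ
  have hmodM : ∀ {k j : ℕ}, k ≡ j [MOD p ^ a] → ∀ φ : M → ℂ, pw k φ = pw j φ := by
    intro k j h φ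
    rw [← hcard] at h
    exact pw_congr (h.of_dvd (Subgroup.card_subgroup_dvd_card M)) φ
  let Y : Subgroup P :=
    { carrier := {y | ∃ k : ℕ, k.Coprime p ∧ pw k χ = χ ∧ Helper75.conjChar M ψ y = pw k ψ}
      one_mem' := ⟨1, Nat.coprime_one_left p, pw_one χ, by rw [Helper75.conjChar_one, pw_one]⟩
      mul_mem' := by
        rintro y₁ y₂ ⟨k₁, hk₁, hf₁, hc₁⟩ ⟨k₂, hk₂, hf₂, hc₂⟩
        refine ⟨k₂ * k₁, Nat.Coprime.mul_left hk₂ hk₁, ?_, ?_⟩
        · rw [← pw_pw, hf₁, hf₂]
        · rw [Helper75.conjChar_mul, hc₂, conjChar_pw, hc₁, pw_pw]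
      inv_mem' := by
        rintro y ⟨k, hk, hf, hc⟩
        obtain ⟨k', hk', hkk', hk'k⟩ := exists_inv_pow hp hk a
        refine ⟨k', hk', ?_, ?_⟩
        · conv_lhs => rw [← hf]
          rw [pw_pw, hmodP hk'k, pw_one]
        · have h1 : Helper75.conjChar M (Helper75.conjChar M ψ y) y⁻¹ = ψ := by
            rw [← Helper75.conjChar_mul, inv_mul_cancel, Helper75.conjChar_one]
          rw [hc, conjChar_pw] at h1
          have h2 := congrArg (pw k') h1
          rw [pw_pw, hmodM hk'k, pw_one] at h2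
          exact h2 }
  have hMY : M ≤ Y := by
    intro y hy
    exact ⟨1, Nat.coprime_one_left p, pw_one χ,
      by rw [Helper75.conjChar_of_mem M hψcf hy, pw_one]⟩
  have h := Subgroup.relIndex_mul_index hMY
  rw [hidx] at h
  have hdvd : Y.index ∣ p := Dvd.intro_left _ h
  rcases (Nat.dvd_prime hp).mp hdvd with h1 | h1
  · left
    have htop : Y = ⊤ := Subgroup.index_eq_one.mp h1
    intro y
    have hy : y ∈ Y := by rw [htop]; trivial
    obtain ⟨k, hk, -, hc⟩ := hy
    exact ⟨k, hk, hc⟩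
  · right
    rw [h1] at h
    have h2 : M.relIndex Y = 1 := by
      have h3 : M.relIndex Y * p = 1 * p := by rw [h, one_mul]
      exact Nat.eq_of_mul_eq_mul_right hp.pos h3
    have hYM : Y ≤ M := Subgroup.relIndex_eq_one.mp h2
    intro k hk hfix
    obtain ⟨y, hy⟩ := exists_conj_eq_pw M hcard hψ hχ hind hk hfix
    have hyY : y ∈ Y := ⟨k, hk, hfix, hy⟩
    rw [← hy, Helper75.conjChar_of_mem M hψcf (hYM hyY)]

/-- if all conjugates of `ψ` take the value `ψ 1` at `m` then `m` is in the kernel of `ψ^P` -/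
theorem indFun_eq_one_of_conj (M : Subgroup P) [M.Normal] (ψ : M → ℂ) (m : M)
    (h : ∀ y : P, Helper75.conjChar M ψ y m = ψ 1) :
    Cfsg.indFun M ψ m = Cfsg.indFun M ψ 1 := by
  classical
  have : Fintype M := Fintype.ofFinite M
  have h3 := congrFun (Helper75.indFun_res M ψ) m
  simp only [Pi.smul_apply, Finset.sum_apply, smul_eq_mul] at h3
  rw [h3]
  simp only [h]
  rw [Finset.sum_const, Finset.card_univ, nsmul_eq_mul, Helper75.indFun_one,
    ← Nat.card_eq_fintype_card, ← M.card_mul_index]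
  have hMne : (Nat.card M : ℂ) ≠ 0 := by exact_mod_cast (Nat.card_pos (α := M)).ne'
  push_cast
  field_simp

theorem conjChar_out (M : Subgroup P) [M.Normal] {ψ : M → ℂ} (hψ : Cfsg.IsClassFunction M ψ)
    (y : P) :
    Helper75.conjChar M ψ ((y : P ⧸ M).out) = Helper75.conjChar M ψ y := by
  obtain ⟨h, heq⟩ := QuotientGroup.mk_out_eq_mul M y
  rw [heq, Helper75.conjChar_mul, Helper75.conjChar_of_mem M hψ h.2]

/-- the orbit of `ψ` is at most `p` times the orbit of `ψ^P` -/
theorem orb_ncard_le_mul (M : Subgroup P) [M.Normal] {p a : ℕ} (hp : p.Prime)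
    (hcard : Nat.card P = p ^ a) (hidx : M.index = p)
    {ψ : M → ℂ} (hψ : Cfsg.IsIrrCharacter M ψ) {χ : P → ℂ} (hχ : Cfsg.IsIrrCharacter P χ)
    (hind : χ = Cfsg.indFun M ψ) :
    (orb p ψ).ncard ≤ (orb p χ).ncard * p := by
  classical
  have hψcf := isClassFunction_of_isCharacter (isCharacter_of_irr hψ)
  have hmodP : ∀ {k j : ℕ}, k ≡ j [MOD p ^ a] → ∀ φ : P → ℂ, pw k φ = pw j φ := by
    intro k j h φ
    rw [← hcard] at h
    exact pw_congr h φ
  have hmodM : ∀ {k j : ℕ}, k ≡ j [MOD p ^ a] → ∀ φ : M → ℂ, pw k φ = pw j φ := by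
    intro k j h φ
    rw [← hcard] at h
    exact pw_congr (h.of_dvd (Subgroup.card_subgroup_dvd_card M)) φ
  have hch : ∀ η : P → ℂ, ∃ k : ℕ, η ∈ orb p χ → (k.Coprime p ∧ η = pw k χ) := by
    intro η
    by_cases h : η ∈ orb p χ
    · obtain ⟨k, hk, he⟩ := h
      exact ⟨k, fun _ => ⟨hk, he⟩⟩
    · exact ⟨0, fun h' => absurd h' h⟩
  choose kη hkη using hch
  let F : (P → ℂ) × (P ⧸ M) → (M → ℂ) :=
    fun x => pw (kη x.1) (Helper75.conjChar M ψ x.2.out)
  have hsub : orb p ψ ⊆ F '' ((orb p χ) ×ˢ (Set.univ : Set (P ⧸ M))) := by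
    rintro φ ⟨j, hj, rfl⟩
    have hη : pw j χ ∈ orb p χ := ⟨j, hj, rfl⟩
    obtain ⟨k, hk, hke, hkdef⟩ : ∃ k : ℕ, k.Coprime p ∧ pw j χ = pw k χ ∧ kη (pw j χ) = k :=
      ⟨_, (hkη _ hη).1, (hkη _ hη).2, rfl⟩
    obtain ⟨k', hk', hkk', hk'k⟩ := exists_inv_pow hp hk a
    have hfix : pw (k' * j) χ = χ := by
      rw [← pw_pw, hke, pw_pw, hmodP hk'k, pw_one]
    have hi : (k' * j).Coprime p := Nat.Coprime.mul_left hk' hj
    obtain ⟨y, hy⟩ := exists_conj_eq_pw M hcard hψ hχ hind hi hfix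
    refine ⟨(pw j χ, (y : P ⧸ M)), ⟨hη, Set.mem_univ _⟩, ?_⟩
    show pw (kη (pw j χ)) (Helper75.conjChar M ψ ((y : P ⧸ M)).out) = pw j ψ
    rw [hkdef, conjChar_out M hψcf y, hy, pw_pw]
    apply hmodM
    calc k * (k' * j) = (k * k') * j := by ring
      _ ≡ 1 * j [MOD p ^ a] := Nat.ModEq.mul_right j hkk'
      _ = j := one_mul j
  have hfin : ((orb p χ) ×ˢ (Set.univ : Set (P ⧸ M))).Finite :=
    (orb_finite p χ).prod Set.finite_univ
  calc (orb p ψ).ncard ≤ (F '' ((orb p χ) ×ˢ (Set.univ : Set (P ⧸ M)))).ncard :=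
        Set.ncard_le_ncard hsub (hfin.image F)
    _ ≤ ((orb p χ) ×ˢ (Set.univ : Set (P ⧸ M))).ncard := Set.ncard_image_le hfin
    _ = (orb p χ).ncard * p := by
        rw [Set.ncard_prod, Set.ncard_univ, ← Subgroup.index_eq_card, hidx]

/-- if every power twist fixing `χ` fixes `ψ`, the orbit of `ψ` is no larger than that of
`χ` -/
theorem orb_ncard_le_of_fix (M : Subgroup P) {p a : ℕ} (hp : p.Prime)
    (hcard : Nat.card P = p ^ a) (ψ : M → ℂ) (χ : P → ℂ)
    (hB : ∀ k : ℕ, k.Coprime p → pw k χ = χ → pw k ψ = ψ) :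
    (orb p ψ).ncard ≤ (orb p χ).ncard := by
  classical
  have hmodP : ∀ {k j : ℕ}, k ≡ j [MOD p ^ a] → ∀ φ : P → ℂ, pw k φ = pw j φ := by
    intro k j h φ
    rw [← hcard] at h
    exact pw_congr h φ
  have hmodM : ∀ {k j : ℕ}, k ≡ j [MOD p ^ a] → ∀ φ : M → ℂ, pw k φ = pw j φ := by
    intro k j h φ
    rw [← hcard] at h
    exact pw_congr (h.of_dvd (Subgroup.card_subgroup_dvd_card M)) φ
  have hch : ∀ η : P → ℂ, ∃ k : ℕ, η ∈ orb p χ → (k.Coprime p ∧ η = pw k χ) := by
    intro η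
    by_cases h : η ∈ orb p χ
    · obtain ⟨k, hk, he⟩ := h
      exact ⟨k, fun _ => ⟨hk, he⟩⟩
    · exact ⟨0, fun h' => absurd h' h⟩
  choose kη hkη using hch
  have hsub : orb p ψ ⊆ (fun η : P → ℂ => pw (kη η) ψ) '' (orb p χ) := by
    rintro φ ⟨j, hj, rfl⟩
    have hη : pw j χ ∈ orb p χ := ⟨j, hj, rfl⟩
    obtain ⟨k, hk, hke, hkdef⟩ : ∃ k : ℕ, k.Coprime p ∧ pw j χ = pw k χ ∧ kη (pw j χ) = k :=
      ⟨_, (hkη _ hη).1, (hkη _ hη).2, rfl⟩
    obtain ⟨k', hk', hkk', hk'k⟩ := exists_inv_pow hp hk a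
    have hfix : pw (k' * j) χ = χ := by
      rw [← pw_pw, hke, pw_pw, hmodP hk'k, pw_one]
    have hi : (k' * j).Coprime p := Nat.Coprime.mul_left hk' hj
    have hfixψ := hB _ hi hfix
    refine ⟨pw j χ, hη, ?_⟩
    show pw (kη (pw j χ)) ψ = pw j ψ
    rw [hkdef]
    conv_lhs => rw [← hfixψ]
    rw [pw_pw]
    apply hmodM
    calc k * (k' * j) = (k * k') * j := by ring
      _ ≡ 1 * j [MOD p ^ a] := Nat.ModEq.mul_right j hkk'
      _ = j := one_mul j
  calc (orb p ψ).ncard ≤ ((fun η : P → ℂ => pw (kη η) ψ) '' (orb p χ)).ncard :=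
        Set.ncard_le_ncard hsub ((orb_finite p χ).image _)
    _ ≤ (orb p χ).ncard := Set.ncard_image_le (orb_finite p χ)

/-- `M` embeds in a product of `p` copies of `M ⧸ ker ψ` when `ψ^P` is faithful -/
theorem card_le_quot_pow (M : Subgroup P) [M.Normal] {p : ℕ} (hidx : M.index = p)
    {ψ : M → ℂ} (hψ : Cfsg.IsClassFunction M ψ) (K : Subgroup M) [K.Normal]
    (hK : ∀ m, m ∈ K ↔ ψ m = ψ 1)
    (hfaith : ∀ m : M, Cfsg.indFun M ψ m = Cfsg.indFun M ψ 1 → m = 1) :
    Nat.card M ≤ Nat.card (M ⧸ K) ^ p := by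
  classical
  let f : M → (P ⧸ M → M ⧸ K) :=
    fun m q => (((MulAut.conjNormal q.out)⁻¹ m : M) : M ⧸ K)
  have hinj : Function.Injective f := by
    intro m m' h
    have h1 : ∀ y : P, Helper75.conjChar M ψ y (m⁻¹ * m') = ψ 1 := by
      intro y
      rw [← conjChar_out M hψ y]
      have h2 := congrFun h (y : P ⧸ M)
      have h3 : ((MulAut.conjNormal ((y : P ⧸ M)).out)⁻¹ m)⁻¹ *
          ((MulAut.conjNormal ((y : P ⧸ M)).out)⁻¹ m') ∈ K := QuotientGroup.eq.mp h2
      rw [← map_inv, ← map_mul] at h3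
      exact (hK _).mp h3
    have h4 := hfaith _ (indFun_eq_one_of_conj M ψ _ h1)
    exact inv_mul_eq_one.mp h4
  have h5 := Nat.card_le_card_of_injective f hinj
  rw [Nat.card_fun, ← Subgroup.index_eq_card M, hidx] at h5
  exact h5

end

theorem numA81 (p a t f' : ℕ) (hp : 2 ≤ p) (ha : 0 < a) (hf : 0 < f')
    (h : (p - 1) * (a - 1) ≤ (f' - 1) + (p - 1) * (t + 1 + 1) * f') :
    (p - 1) * a ≤ (p * f' - 1) + (p - 1) * (t + 1) * (p * f') := by
  obtain ⟨q, rfl⟩ : ∃ q, p = q + 2 := ⟨p - 2, by omega⟩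
  obtain ⟨b, rfl⟩ : ∃ b, a = b + 1 := ⟨a - 1, by omega⟩
  obtain ⟨g, rfl⟩ : ∃ g, f' = g + 1 := ⟨f' - 1, by omega⟩
  have e1 : q + 2 - 1 = q + 1 := by omega
  have e2 : (q + 2) * (g + 1) = (q * g + q + 2 * g + 1) + 1 := by ring
  rw [e1] at h ⊢
  rw [Nat.add_sub_cancel, Nat.add_sub_cancel] at h
  rw [e2, Nat.add_sub_cancel]
  have key : g + (q + 1) * (t + 1 + 1) * (g + 1) + (q + 1) ≤
      (q * g + q + 2 * g + 1) + (q + 1) * (t + 1) * ((q * g + q + 2 * g + 1) + 1) := by
    have : (q * g + q + 2 * g + 1) + (q + 1) * (t + 1) * ((q * g + q + 2 * g + 1) + 1) =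
        g + (q + 1) * (t + 1 + 1) * (g + 1) + (q + 1) +
          (q * g + g + (q + 1) * (g + 1) * (t * q + q + t)) := by ring
    rw [this]
    exact Nat.le_add_right _ _
  calc (q + 1) * (b + 1) = (q + 1) * b + (q + 1) := by ring
    _ ≤ g + (q + 1) * (t + 1 + 1) * (g + 1) + (q + 1) := Nat.add_le_add_right h _
    _ ≤ _ := key

theorem numB81 (p a a' t f' : ℕ) (hp : 2 ≤ p) (hf : 0 < f')
    (h : (p - 1) * a' ≤ (f' - 1) + (p - 1) * (t + 1) * f') (ha : a - 1 ≤ a' * p) :
    (p - 1) * a ≤ (p * f' - 1) + (p - 1) * (t + 1) * (p * f') := by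
  obtain ⟨q, rfl⟩ : ∃ q, p = q + 2 := ⟨p - 2, by omega⟩
  obtain ⟨g, rfl⟩ : ∃ g, f' = g + 1 := ⟨f' - 1, by omega⟩
  have e1 : q + 2 - 1 = q + 1 := by omega
  have e2 : (q + 2) * (g + 1) = (q * g + q + 2 * g + 1) + 1 := by ring
  rw [e1] at h ⊢
  rw [Nat.add_sub_cancel] at h
  rw [e2, Nat.add_sub_cancel]
  calc (q + 1) * a ≤ (q + 1) * (a' * (q + 2) + 1) := Nat.mul_le_mul_left _ (by omega)
    _ = (q + 2) * ((q + 1) * a') + (q + 1) := by ring
    _ ≤ (q + 2) * (g + (q + 1) * (t + 1) * (g + 1)) + (q + 1) :=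
        Nat.add_le_add_right (Nat.mul_le_mul_left _ h) _
    _ = _ := by ring

/-- the bound on the order of a `p`-group with a faithful irreducible character in terms of
its degree and the size of its power-twist orbit -/
theorem pgroup_faithful_bound {p : ℕ} (hp : p.Prime) :
    ∀ (a : ℕ) (P : Type u) [Group P] [Fintype P], Nat.card P = p ^ a →
    ∀ (χ : P → ℂ), Cfsg.IsIrrCharacter P χ → (∀ g : P, χ g = χ 1 → g = 1) →
    ∀ t : ℕ, (orb p χ).ncard ≤ (p - 1) * p ^ t →
    (p - 1) * a ≤ (Cfsg.charDegree χ - 1) + (p - 1) * (t + 1) * Cfsg.charDegree χ := by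
  intro a
  induction a using Nat.strong_induction_on with
  | _ a ih =>
  intro P _ _ hcard χ hχ hfaith t ht
  classical
  have hχc := isCharacter_of_irr hχ
  have hdeg : χ 1 = (Cfsg.charDegree χ : ℂ) := Helper80.char_one_eq_charDegree hχc
  have hp2 := hp.two_le
  by_cases h1 : χ 1 = 1
  · have hf : Cfsg.charDegree χ = 1 := by
      have : ((Cfsg.charDegree χ : ℕ) : ℂ) = 1 := by rw [← hdeg, h1]
      exact_mod_cast this
    rw [hf]
    rcases Nat.eq_zero_or_pos a with ha | ha
    · subst ha; simp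
    · have h2 := totient_le_orb_ncard hp hcard ha hχc h1 hfaith
      have h3 : p ^ (a - 1) ≤ p ^ t := Nat.le_of_mul_le_mul_left (h2.trans ht) (by omega)
      have h4 : a - 1 ≤ t := (Nat.pow_le_pow_iff_right hp.one_lt).mp h3
      have h5 : a ≤ t + 1 := by omega
      calc (p - 1) * a ≤ (p - 1) * (t + 1) := Nat.mul_le_mul_left _ h5
        _ = (1 - 1) + (p - 1) * (t + 1) * 1 := by simp
  · have hPg : IsPGroup p P := IsPGroup.of_card hcard
    obtain ⟨M, hMn, ψ, hidx, hψ, hind⟩ := exists_maximal_ind hp hPg hχ h1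
    haveI := hMn
    have : Fintype M := Fintype.ofFinite M
    have hψc := isCharacter_of_irr hψ
    have hψcf := isClassFunction_of_isCharacter hψc
    have hdegψ : ψ 1 = (Cfsg.charDegree ψ : ℂ) := Helper80.char_one_eq_charDegree hψc
    have hfdeg : Cfsg.charDegree χ = p * Cfsg.charDegree ψ := by
      have h2 : χ 1 = (M.index : ℂ) * ψ 1 := by rw [hind]; exact Helper75.indFun_one M ψ
      rw [hidx, hdeg, hdegψ] at h2
      exact_mod_cast h2
    have hψpos : 0 < Cfsg.charDegree ψ := Helper80.charDegree_pos hψ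
    have ha : 0 < a := by
      rcases Nat.eq_zero_or_pos a with ha | ha
      · subst ha
        rw [pow_zero] at hcard
        have := M.index_dvd_card
        rw [hidx, hcard] at this
        exact absurd (Nat.le_of_dvd one_pos this) (by omega)
      · exact ha
    have hMcard : Nat.card M = p ^ (a - 1) := by
      have h2 := M.card_mul_index
      rw [hidx, hcard] at h2
      have h3 : p ^ a = p ^ (a - 1) * p := by
        rw [← pow_succ]
        congr 1
        omega
      rw [h3] at h2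
      exact Nat.eq_of_mul_eq_mul_right hp.pos h2
    have hfaithM : ∀ m : M, Cfsg.indFun M ψ m = Cfsg.indFun M ψ 1 → m = 1 := by
      intro m hm
      rw [← hind] at hm
      exact Subtype.ext (hfaith _ hm)
    obtain ⟨K, hKn, hK⟩ := Helper80.exists_ker_subgroup hψc
    haveI := hKn
    rcases conj_pw_dichotomy M hp hcard hidx hψ hχ hind with hA | hB
    · have hψfaith : ∀ m : M, ψ m = ψ 1 → m = 1 := by
        intro m hm
        apply hfaithM
        apply indFun_eq_one_of_conj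
        intro y
        obtain ⟨k, hk, hc⟩ := hA y
        rw [hc, pw_apply]
        exact (hK _).mp (K.pow_mem ((hK m).mpr hm) k)
      have hN : (orb p ψ).ncard ≤ (p - 1) * p ^ (t + 1) := by
        calc (orb p ψ).ncard ≤ (orb p χ).ncard * p :=
              orb_ncard_le_mul M hp hcard hidx hψ hχ hind
          _ ≤ (p - 1) * p ^ t * p := Nat.mul_le_mul_right p ht
          _ = (p - 1) * p ^ (t + 1) := by rw [pow_succ, mul_assoc]
      have hIH := ih (a - 1) (by omega) M hMcard ψ hψ hψfaith (t + 1) hN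
      rw [hfdeg]
      exact numA81 p a t _ hp2 ha hψpos hIH
    · obtain ⟨ψb, hψb, hψbe⟩ := Helper80.exists_isIrrCharacter_deflate K hψ
        (fun x hx => (hK x).mp hx)
      have : Fintype (M ⧸ K) := Fintype.ofFinite _
      have hψbfaith : ∀ q : M ⧸ K, ψb q = ψb 1 → q = 1 := by
        intro q
        induction q using QuotientGroup.induction_on with
        | H m =>
          intro hm
          have h2 : ψb ((1 : M) : M ⧸ K) = ψ 1 := hψbe 1
          rw [hψbe m] at hm
          have h3 : ψ m = ψ 1 := by rw [hm, ← h2]; rfl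
          exact (QuotientGroup.eq_one_iff m).mpr ((hK m).mpr h3)
      have hdvd : Nat.card (M ⧸ K) ∣ p ^ (a - 1) := by
        rw [← hMcard]
        exact Subgroup.card_quotient_dvd_card K
      obtain ⟨a', ha'le, ha'⟩ := (Nat.dvd_prime_pow hp).mp hdvd
      have hle := card_le_quot_pow M hidx hψcf K hK hfaithM
      rw [hMcard, ha', ← pow_mul] at hle
      have ha2 : a - 1 ≤ a' * p := (Nat.pow_le_pow_iff_right hp.one_lt).mp hle
      have hN : (orb p ψb).ncard ≤ (p - 1) * p ^ t := by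
        have h2 := orb_ncard_inflate K p ψb
        have h3 : (fun m : M => ψb (m : M ⧸ K)) = ψ := funext hψbe
        rw [h3] at h2
        exact h2.trans ((orb_ncard_le_of_fix M hp hcard ψ χ hB).trans ht)
      have hIH := ih a' (by omega) (M ⧸ K) ha' ψb hψb hψbfaith t hN
      have hdegb : Cfsg.charDegree ψb = Cfsg.charDegree ψ := by
        unfold Cfsg.charDegree
        rw [← hψbe 1]
        rfl
      rw [hdegb] at hIH
      rw [hfdeg]
      exact numB81 p a a' t _ hp2 hψpos hIH ha2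

end Cfsg.Agent.Lib.Helper81
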